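import Cfsg.Agent.GeomClasses.FrameRefine
import Cfsg.Agent.GeomClasses.DecompTools
import Cfsg.Agent.GeomClasses.BlockCoords

/-! # Over three elements three-dimensional blocks refine to a frame -/

set_option autoImplicit false

namespace Cfsg.Agent.GeomClasses.OddMax

open Matrix Cfsg.Agent.Forms Module

variable {ι : Type} [Fintype ι] [DecidableEq ι] {F : Type*} [Field F] [Fintype F]

omit [Fintype F] in
/-- An orthogonal family of equal non-zero values gives a frame. -/
theorem frame_decomp (Q : QuadraticForm F (ι → F)) (h2 : (2 : F) ≠ 0) {N : ℕ} (hN : 2 ≤ N)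
    (hNι : Fintype.card ι = N) (d : Fin N → (ι → F)) {c : F} (hc : c ≠ 0) (hd : ∀ i, Q (d i) = c)
    (ho : ∀ i j, i ≠ j → QuadraticMap.polar Q (d i) (d j) = 0) :
    Cfsg.Geo.IsOrthogonalMDecomposition (⇑Q) 1 fun i => Submodule.span F {d i} := by
  classical
  have hne : ∀ i, d i ≠ 0 := fun i h => hc (by rw [← hd i, h, QuadraticMap.map_zero])
  have hli : LinearIndependent F d := LinearMap.BilinForm.linearIndependent_of_iIsOrtho
    (B := QuadraticMap.polarBilin Q) (LinearMap.BilinForm.iIsOrtho_def.2 fun i j h => by simpa using ho i j h)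
    fun i h => mul_ne_zero h2 hc (by
      simp only [QuadraticMap.polarBilin_apply_apply, polar_self_two_mul, hd] at h
      exact h)
  have hD : Cfsg.Geo.IsMDecomposition 1 fun i => Submodule.span F {d i} := by
    refine ⟨hN, one_pos, fun i => finrank_span_singleton (hne i), hli.iSupIndep_span_singleton, ?_⟩
    rw [← Submodule.span_range_eq_iSup]
    exact hli.span_eq_top_of_card_eq_finrank' (by rw [Fintype.card_fin, Module.finrank_pi, hNι])
  refine ⟨⟨hD, fun i w hw hw0 => ?_, fun i j hij u hu v hv => ?_⟩, fun i j => ?_⟩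
  · obtain ⟨l, rfl⟩ := Submodule.mem_span_singleton.mp hw
    have hl : l ≠ 0 := fun h0 => hw0 (by rw [h0, zero_smul])
    constructor <;> refine ⟨d i, Submodule.mem_span_singleton_self _, ?_⟩
    · rw [QuadraticMap.polar_smul_right, polar_self_two_mul, hd]
      exact mul_ne_zero hl (mul_ne_zero h2 hc)
    · rw [QuadraticMap.polar_smul_left, polar_self_two_mul, hd]
      exact mul_ne_zero hl (mul_ne_zero h2 hc)
  · obtain ⟨l, rfl⟩ := Submodule.mem_span_singleton.mp hu
    obtain ⟨l', rfl⟩ := Submodule.mem_span_singleton.mp hv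
    simp [QuadraticMap.polar_smul_left, QuadraticMap.polar_smul_right, ho i j hij]
  · refine ⟨(LinearEquiv.toSpanNonzeroSingleton F _ (d i) (hne i)).symm.trans
      (LinearEquiv.toSpanNonzeroSingleton F _ (d j) (hne j)), fun w => ?_⟩
    obtain ⟨l, rfl⟩ := (LinearEquiv.toSpanNonzeroSingleton F _ (d i) (hne i)).surjective w
    rw [LinearEquiv.trans_apply, LinearEquiv.symm_apply_apply]
    show Q (l • d j) = Q (l • d i)
    rw [QuadraticMap.map_smul, QuadraticMap.map_smul, hd, hd]

/-- The stabiliser in `Ω` of blocks of dimension three stabilises a frame. -/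
theorem exists_frame (hF : Fintype.card F = 3) (Q : QuadraticForm F (ι → F))
    {t : ℕ} {D : Fin t → Submodule F (ι → F)} (hD : Cfsg.Geo.IsOrthogonalMDecomposition (⇑Q) 3 D) :
    ∃ D' : Fin (t * 3) → Submodule F (ι → F), Cfsg.Geo.IsOrthogonalMDecomposition (⇑Q) 1 D' ∧
      Cfsg.Geo.decompositionStabilizer D ⊓ Cfsg.Geo.omegaGL ⇑Q ≤ Cfsg.Geo.decompositionStabilizer D' := by
  classical
  have h3 := FrameRefine.three_eq_zero hF
  have h2 : (2 : F) ≠ 0 := fun e => one_ne_zero (α := F) (by linear_combination h3 - e)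
  have hd := hD.decomp
  have ht := hd.decomp.two_le
  let i₀ : Fin t := ⟨0, by omega⟩
  let B : LinearMap.BilinForm F (D i₀) :=
    (QuadraticMap.polarBilin Q).compl₁₂ (D i₀).subtype (D i₀).subtype
  have hB : ∀ x y : D i₀, B x y = QuadraticMap.polar Q (x : ι → F) y := fun _ _ => rfl
  have hS : B.IsSymm := ⟨fun x y => QuadraticMap.polar_comm (⇑Q) _ _⟩
  have hnd : B.Nondegenerate := by
    have key : ∀ x : D i₀, (∀ y, B x y = 0) → x = 0 := by
      intro x hx
      by_contra h0
      obtain ⟨-, v, hv, hxv⟩ := hd.nondegenerate i₀ x x.2 (fun e => h0 (Subtype.ext e))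
      exact hxv (hx ⟨v, hv⟩)
    exact ⟨key, fun y hy => key y fun x => (hS.eq x y ▸ hy x : B y x = 0)⟩
  obtain ⟨b, hb0, hb1, hb2⟩ := Cfsg.Agent.Forms.exists_orth_family h2 2 hS hnd
    (by rw [hd.decomp.finrank_eq])
  obtain ⟨c, hc, w, hw0, hwc⟩ : ∃ c : F, c ≠ 0 ∧ ∃ w : Fin 3 → D i₀,
      (∀ l l', l ≠ l' → B (w l) (w l') = 0) ∧ ∀ l, B (w l) (w l) = 2 * c := by
    have e0 : B (b 0) (b 0) = 1 := hb1 _ (by decide)
    have e1 : B (b 1) (b 1) = 1 := hb1 _ (by decide)
    rcases FrameRefine.three_cases hF (B (b 2) (b 2)) with h | h | h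
    · exact absurd h hb2
    · refine ⟨2, h2, b, hb0, fun l => ?_⟩
      rw [show (2 : F) * 2 = 1 by linear_combination h3]
      fin_cases l <;> assumption
    · have s : ∀ l l', l ≠ l' → B (b l) (b l') = 0 := hb0
      refine ⟨1, one_ne_zero, ![b 0 + b 1, b 0 - b 1, b 2], ?_, ?_⟩
      · intro l l' hl
        fin_cases l <;> fin_cases l' <;>
          simp_all [s 0 1 (by decide), s 0 2 (by decide), s 1 0 (by decide), s 1 2 (by decide), s 2 0 (by decide),
            s 2 1 (by decide)]
      · intro l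
        fin_cases l
        · simp [s 0 1 (by decide), s 1 0 (by decide), e0, e1]; ring
        · simp [s 0 1 (by decide), s 1 0 (by decide), e0, e1]; ring
        · show B (b 2) (b 2) = 2 * 1
          rw [h]; linear_combination -h3
  choose φ hφ using fun i => hD.isometric i₀ i
  have hpolφ : ∀ i (x y : D i₀), QuadraticMap.polar Q (φ i x : ι → F) (φ i y) =
      QuadraticMap.polar Q (x : ι → F) y := by
    intro i x y
    simp only [QuadraticMap.polar, ← Submodule.coe_add, ← map_add, hφ]
  have hQw : ∀ l, Q (w l : ι → F) = c := fun l => mul_left_cancel₀ h2 (by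
    rw [← polar_self_two_mul, ← hB, hwc])
  have hli : LinearIndependent F w :=
    LinearMap.BilinForm.linearIndependent_of_iIsOrtho (B := B)
      (LinearMap.BilinForm.iIsOrtho_def.2 hw0) fun l => by
        rw [hwc]; exact mul_ne_zero h2 hc
  let bw := basisOfLinearIndependentOfCardEqFinrank hli (by simp [hd.decomp.finrank_eq])
  let e : Fin t → Fin 3 → (ι → F) := fun i l => (φ i (w l) : ι → F)
  have hclass : ∀ i, ∀ v ∈ D i, Q v = c → ∃ l, v = e i l ∨ v = -e i l := by
    intro i v hv hQv
    set x := (φ i).symm ⟨v, hv⟩ with hx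
    have hφx : φ i x = ⟨v, hv⟩ := (φ i).apply_symm_apply _
    have hQx : Q (x : ι → F) = c := by rw [← hφ i, hφx]; exact hQv
    have hexp : ∑ l, bw.repr x l • w l = x := by
      conv_rhs => rw [← bw.sum_repr x]
      simp [bw, coe_basisOfLinearIndependentOfCardEqFinrank]
    have hsq : ∑ l, bw.repr x l * bw.repr x l = 1 := by
      have h := hB x x
      rw [polar_self_two_mul, hQx] at h
      nth_rw 1 2 [← hexp] at h
      simp only [map_sum, map_smul, LinearMap.sum_apply, LinearMap.smul_apply, smul_eq_mul] at h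
      rw [Finset.sum_congr rfl (g := fun l => bw.repr x l * (bw.repr x l * (2 * c))) (fun l _ => by
        rw [Finset.sum_eq_single l (fun l' _ h' => by rw [hw0 l' l h', mul_zero])
          (fun h' => absurd (Finset.mem_univ l) h'), hwc])] at h
      refine mul_right_cancel₀ (mul_ne_zero h2 hc) ?_
      rw [Finset.sum_mul, one_mul]
      conv_rhs => rw [← h]
      exact Finset.sum_congr rfl fun l _ => by ring
    obtain ⟨l, hl, hzero⟩ := FrameRefine.sq_sum_eq_one hF (Or.inr rfl) _ hsq
    have hxl : x = bw.repr x l • w l := by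
      conv_lhs => rw [← hexp]
      exact Finset.sum_eq_single l (fun l' _ h' => by rw [hzero l' h', zero_smul])
        (fun h' => absurd (Finset.mem_univ l) h')
    refine ⟨l, ?_⟩
    have hv' : v = (φ i x : ι → F) := by rw [hφx]
    rw [hv', hxl, map_smul, Submodule.coe_smul]
    rcases hl with hl | hl <;> simp [e, hl]
  let π : Fin (t * 3) ≃ Fin t × Fin 3 := finProdFinEquiv.symm
  let d : Fin (t * 3) → (ι → F) := fun s => e (π s).1 (π s).2
  have hcard : Fintype.card ι = t * 3 := by
    obtain ⟨E, -, -⟩ := exists_blockCoords hd.decomp fun i => Module.finBasisOfFinrankEq F (D i) (hd.decomp.finrank_eq i)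
    simpa using E.finrank_eq
  have hQd : ∀ s, Q (d s) = c := fun s => (hφ _ _).trans (hQw _)
  have hF' := frame_decomp Q h2 (by omega) hcard d hc hQd fun s s' hss => by
    show QuadraticMap.polar Q (e (π s).1 (π s).2) (e (π s').1 (π s').2) = 0
    by_cases h : (π s).1 = (π s').1
    · rw [← h]
      show QuadraticMap.polar Q (φ (π s).1 (w (π s).2) : ι → F) (φ (π s).1 (w (π s').2)) = 0
      rw [hpolφ, ← hB]
      exact hw0 _ _ fun h' => hss (π.injective (Prod.ext h h'))
    · exact hd.orthogonal _ _ h _ (φ _ _).2 _ (φ _ _).2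
  refine ⟨_, hF', fun g hg => ?_⟩
  obtain ⟨⟨σ, hσ⟩, hgΩ⟩ := hg
  refine mem_decomp_of_forall hF'.decomp.decomp fun s => ?_
  have hgv : (g : Matrix ι ι F) *ᵥ d s ∈ D (σ (π s).1) := hσ (π s).1 ▸ ⟨d s, (φ _ _).2, Matrix.toLin'_apply _ _⟩
  obtain ⟨l, hl⟩ := hclass _ _ hgv ((omegaGL_preserves Q hgΩ _).trans (hQd s))
  refine ⟨π.symm (σ (π s).1, l), fun x hx => ?_⟩
  obtain ⟨r, rfl⟩ := Submodule.mem_span_singleton.mp hx
  rw [Matrix.mulVec_smul]
  refine Submodule.smul_mem _ _ (Submodule.mem_span_singleton.mpr ?_)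
  have hd' : d (π.symm (σ (π s).1, l)) = e (σ (π s).1) l := by simp [d]
  rcases hl with hl | hl
  · exact ⟨1, by rw [one_smul, hd', hl]⟩
  · exact ⟨-1, by rw [neg_smul, one_smul, hd', hl]⟩

end Cfsg.Agent.GeomClasses.OddMax
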