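import Cfsg.Agent.GeomClasses.OddMax.Root

/-! # `Ω` does not stabilise frames, extension fields or subfield structures -/

set_option autoImplicit false

namespace Cfsg.Agent.GeomClasses.OddMax

open Matrix Cfsg.Agent.Forms Module

variable {ι : Type} [Fintype ι] [DecidableEq ι] {F : Type*} [Field F] [Fintype F] {Q : QuadraticForm F (ι → F)}

local notation "BQ" => QuadraticMap.polarBilin Q
set_option quotPrecheck false in
local notation "Ωg" => Cfsg.Geo.omegaGL (DFunLike.coe Q)

theorem odd_ringChar (h2 : (2 : F) ≠ 0) : Odd (ringChar F) := by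
  haveI : Fact (ringChar F).Prime := ⟨CharP.char_is_prime F _⟩
  rcases (Fact.out : (ringChar F).Prime).eq_two_or_odd' with h | h
  · refine absurd ?_ h2
    have := ringChar.Nat.cast_ringChar (R := F)
    rw [h] at this
    exact_mod_cast this
  · exact h

/-- Frames of equal values are not preserved by `Ω`. -/
theorem not_le_frame (hQ : (BQ).Nondegenerate) (h2 : (2 : F) ≠ 0) (hn : 7 ≤ Fintype.card ι)
    {t : ℕ} {D : Fin t → Submodule F (ι → F)} (hD : Cfsg.Geo.IsOrthogonalMDecomposition (⇑Q) 1 D) :
    ¬ Ωg ≤ Cfsg.Geo.decompositionStabilizer D := by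
  classical
  intro hle
  have hd := hD.decomp.decomp
  have htn : Fintype.card ι = t * 1 := card_eq_of_decomp hd
  have hgen : ∀ i, ∃ d : ι → F, d ≠ 0 ∧ D i = Submodule.span F {d} := by
    intro i
    obtain ⟨⟨d, hd'⟩, hd0, hsp⟩ := finrank_eq_one_iff'.mp (hd.finrank_eq i)
    refine ⟨d, fun e => hd0 (Subtype.ext e), le_antisymm (fun x hx => ?_) ?_⟩
    · obtain ⟨c, hc⟩ := hsp ⟨x, hx⟩
      exact Submodule.mem_span_singleton.mpr ⟨c, congrArg Subtype.val hc⟩
    · rw [Submodule.span_singleton_le_iff_mem]; exact hd'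
  obtain ⟨d0, hd00, hDd0⟩ := hgen ⟨0, by omega⟩
  have hd0mem : d0 ∈ D ⟨0, by omega⟩ := hDd0 ▸ Submodule.mem_span_singleton_self _
  choose φ hφ using fun i => hD.isometric ⟨0, by omega⟩ i
  let d : Fin t → (ι → F) := fun i => (φ i ⟨d0, hd0mem⟩ : ι → F)
  have hdm : ∀ i, d i ∈ D i := fun i => (φ i _).2
  have hdne : ∀ i, d i ≠ 0 := fun i h => hd00 (congrArg Subtype.val ((φ i).map_eq_zero_iff.mp (Subtype.ext h :
    φ i ⟨d0, hd0mem⟩ = 0)))
  set a := Q d0
  have hQd : ∀ i, Q (d i) = a := fun i => hφ i _
  have hspan : ∀ i, D i = Submodule.span F {d i} := fun i =>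
    (Submodule.eq_of_le_of_finrank_eq ((Submodule.span_singleton_le_iff_mem _ _).mpr (hdm i))
      (by rw [finrank_span_singleton (hdne i), hd.finrank_eq i])).symm
  have hort : ∀ i j, i ≠ j → QuadraticMap.polar Q (d i) (d j) = 0 := fun i j h =>
    hD.decomp.orthogonal i j h _ (hdm i) _ (hdm j)
  have ha : a ≠ 0 := by
    intro h
    obtain ⟨-, v, hv, hne⟩ := hD.decomp.nondegenerate ⟨0, by omega⟩ (d ⟨0, by omega⟩) (hdm _) (hdne _)
    rw [hspan] at hv
    obtain ⟨c, rfl⟩ := Submodule.mem_span_singleton.mp hv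
    rw [QuadraticMap.polar_smul_right, polar_self_two_mul, hQd, h] at hne
    simp at hne
  have hpol : ∀ i j, QuadraticMap.polar Q (d i) (d j) = if i = j then 2 * a else 0 := fun i j => by
    split_ifs with h
    · subst h; rw [polar_self_two_mul, hQd]
    · exact hort i j h
  have h2a : 2 * a ≠ 0 := mul_ne_zero h2 ha
  have htop : ∀ W : Submodule F (ι → F), (∀ i, d i ∈ W) → ∀ x, x ∈ W := fun W hW x => by
    have : (⊤ : Submodule F (ι → F)) ≤ W := by
      rw [← hd.iSup_eq_top]
      exact iSup_le fun i => by rw [hspan, Submodule.span_singleton_le_iff_mem]; exact hW i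
    exact this trivial
  -- every singular vector meets at most three lines
  have key : ∀ b, Q b = 0 → b ≠ 0 → ∃ S : Finset (Fin t), S.card ≤ 3 ∧
      ∀ l ∉ S, QuadraticMap.polar Q (d l) b = 0 := by
    intro b hb hb0
    obtain ⟨v, hbv, hQv⟩ := exists_perp_anisotropic hQ (by omega) b
    have hv : v ∉ Submodule.span F ({b} : Set (ι → F)) := fun h => by
      obtain ⟨c, rfl⟩ := Submodule.mem_span_singleton.mp h
      rw [QuadraticMap.map_smul, hb, smul_zero] at hQv
      exact hQv rfl
    obtain ⟨g, hg, hr⟩ := exists_root hQ hn hb hbv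
    obtain ⟨σ, hσ⟩ := hle hg
    have himg : ∀ i, ∃ c : F, (g : Matrix ι ι F) *ᵥ d i = c • d (σ i) := fun i => by
      have h : (g : Matrix ι ι F) *ᵥ d i ∈ D (σ i) := hσ i ▸ ⟨d i, hdm i, Matrix.toLin'_apply _ _⟩
      rw [hspan] at h
      obtain ⟨c, hc⟩ := Submodule.mem_span_singleton.mp h
      exact ⟨c, hc.symm⟩
    choose c hc using himg
    have hpresQ : ∀ x, Q ((g : Matrix ι ι F) *ᵥ x) = Q x := omegaGL_preserves Q hg
    have hc2 : ∀ i, c i * c i = 1 := fun i => by
      have h := hpresQ (d i)
      rw [hc, QuadraticMap.map_smul, hQd, hQd, smul_eq_mul] at h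
      exact mul_right_cancel₀ ha (by rw [one_mul]; exact h)
    have hpow : ∀ (k : ℕ) i, ∃ e : F, ((g ^ k : GL ι F) : Matrix ι ι F) *ᵥ d i = e • d ((σ ^ k) i) := by
      intro k
      induction k with
      | zero => exact fun i => ⟨1, by simp⟩
      | succ k ih =>
        intro i
        obtain ⟨e, he⟩ := ih i
        refine ⟨e * c ((σ ^ k) i), ?_⟩
        rw [pow_succ', Units.val_mul, ← Matrix.mulVec_mulVec, he, Matrix.mulVec_smul, hc, smul_smul,
          pow_succ', Equiv.Perm.mul_apply]
    obtain ⟨l, hl⟩ := odd_ringChar (F := F) h2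
    have hp1 := isRoot_pow_char hb hbv hr
    have hσp : ∀ i, (σ ^ ringChar F) i = i := fun i => by
      obtain ⟨e, he⟩ := hpow (ringChar F) i
      rw [hp1, Units.val_one, Matrix.one_mulVec] at he
      by_contra h
      have h' := congrArg (QuadraticMap.polar Q (d i)) he
      rw [hpol, if_pos rfl, QuadraticMap.polar_smul_right, hpol, if_neg (Ne.symm h), smul_zero] at h'
      exact h2a h'
    have hu : ∀ i, c i • d (σ i) - d i ∈ Submodule.span F ({b, v} : Set (ι → F)) := fun i => by
      rw [← hc]; exact root_sub_mem hr _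
    by_cases hmove : ∃ i, σ i ≠ i
    · obtain ⟨i, hi⟩ := hmove
      have hii : σ (σ i) ≠ i := fun e => hi (by
        have hsq : ∀ k, ((σ ^ 2) ^ k) i = i := fun k => by
          induction k with
          | zero => simp
          | succ k ih => rw [pow_succ', Equiv.Perm.mul_apply, ih, pow_two, Equiv.Perm.mul_apply, e]
        have h := hσp i
        rw [hl, pow_succ', pow_mul, Equiv.Perm.mul_apply, hsq] at h
        exact h)
      have hij : σ (σ i) ≠ σ i := fun e => hi (σ.injective e)
      set U := Submodule.span F (Set.range ![c i • d (σ i) - d i, c (σ i) • d (σ (σ i)) - d (σ i)])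
      have hli : LinearIndependent F ![c i • d (σ i) - d i, c (σ i) • d (σ (σ i)) - d (σ i)] := by
        rw [LinearIndependent.pair_iff]
        intro x y hxy
        have e1 := congrArg (QuadraticMap.polar Q (d i)) hxy
        have e2 := congrArg (QuadraticMap.polar Q (d (σ (σ i)))) hxy
        simp only [QuadraticMap.polar_add_right, QuadraticMap.polar_smul_right, QuadraticMap.polar_sub_right,
          smul_eq_mul, hpol, if_neg hi.symm, if_neg hii.symm, if_neg hij, if_neg hii, if_pos, mul_zero,
          show QuadraticMap.polar Q (d i) (0 : ι → F) = 0 by simp [QuadraticMap.polar],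
          show QuadraticMap.polar Q (d (σ (σ i))) (0 : ι → F) = 0 by simp [QuadraticMap.polar], zero_sub, sub_zero,
          mul_neg, add_zero, zero_add, neg_eq_zero] at e1 e2
        have hx : x = 0 := (mul_eq_zero.mp e1).resolve_right h2a
        refine ⟨hx, ?_⟩
        rcases mul_eq_zero.mp e2 with h | h
        · exact h
        · exact absurd h (mul_ne_zero (left_ne_zero_of_mul_eq_one (hc2 _)) h2a)
      have hU : U = Submodule.span F ({b, v} : Set (ι → F)) := by
        refine Submodule.eq_of_le_of_finrank_le (Submodule.span_le.mpr ?_) ?_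
        · rintro x ⟨j, rfl⟩
          fin_cases j
          · exact hu i
          · exact hu (σ i)
        · rw [finrank_span_eq_card hli, Fintype.card_fin]
          exact finrank_pair_le b v
      refine ⟨{i, σ i, σ (σ i)}, Finset.card_le_three, fun l hl => ?_⟩
      simp only [Finset.mem_insert, Finset.mem_singleton, not_or] at hl
      have hb' : b ∈ U := hU ▸ Submodule.subset_span (by simp)
      refine Submodule.span_induction (p := fun x _ => QuadraticMap.polar Q (d l) x = 0) ?_
        (by simp [QuadraticMap.polar]) (fun x y _ _ hx hy => by rw [QuadraticMap.polar_add_right, hx, hy, add_zero])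
        (fun r x _ hx => by rw [QuadraticMap.polar_smul_right, hx, smul_zero]) hb'
      rintro x ⟨j, rfl⟩
      fin_cases j <;>
        simp [QuadraticMap.polar_sub_right, QuadraticMap.polar_smul_right, hpol, hl.1, hl.2.1, hl.2.2]
    · exfalso
      push Not at hmove
      obtain ⟨x, hx⟩ := root_moves hQ hb0 hv hr
      have hfix : ∀ x, x ∈ LinearMap.ker (Matrix.toLin' (g : Matrix ι ι F) - LinearMap.id) := htop _ fun i => by
        have hci : c i = 1 := by
          rcases mul_self_eq_one_iff.mp (hc2 i) with h | h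
          · exact h
          exfalso
          have hk : ∀ k : ℕ, ((g ^ k : GL ι F) : Matrix ι ι F) *ᵥ d i = (c i) ^ k • d i := by
            intro k
            induction k with
            | zero => simp
            | succ k ih =>
              rw [pow_succ', Units.val_mul, ← Matrix.mulVec_mulVec, ih, Matrix.mulVec_smul, hc, hmove, smul_smul,
                pow_succ]
          have h1 := hk (ringChar F)
          rw [hp1, Units.val_one, Matrix.one_mulVec, h, Odd.neg_one_pow ⟨l, hl⟩] at h1
          have h3 := congrArg (QuadraticMap.polar Q (d i)) h1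
          rw [QuadraticMap.polar_smul_right, hpol, if_pos rfl, smul_eq_mul] at h3
          exact h2a ((mul_eq_zero.mp (by linear_combination h3 : (2 : F) * (2 * a) = 0)).resolve_left h2)
        rw [LinearMap.mem_ker, LinearMap.sub_apply, Matrix.toLin'_apply, hc, hmove, hci, one_smul, LinearMap.id_apply,
          sub_self]
      have hh := hfix x
      rw [LinearMap.mem_ker, LinearMap.sub_apply, Matrix.toLin'_apply, LinearMap.id_apply, sub_eq_zero] at hh
      exact hx hh
  -- a singular vector meeting four lines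
  obtain ⟨x, y, hxy⟩ : ∃ x y : F, x ^ 2 + y ^ 2 = -1 ∧ x ≠ 0 := by
    obtain ⟨x, y, h⟩ := Cfsg.Agent.Forms.exists_sq_add_sq_eq (one_ne_zero (α := F)) (one_ne_zero (α := F)) (-1)
    by_cases hx : x = 0
    · exact ⟨y, x, by linear_combination h, fun hy => by subst hx hy; simp at h⟩
    · exact ⟨x, y, by linear_combination h, hx⟩
  let P : Fin 6 → Fin t := fun s => ⟨s, by omega⟩
  have hP : ∀ r s, P r = P s ↔ r = s := fun r s => by simp [P, Fin.ext_iff]
  set b := d (P 0) + x • d (P 1) + y • d (P 2) + d (P 3) + x • d (P 4) + y • d (P 5) with hbdef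
  have hQb : Q b = 0 := by
    simp only [hbdef, QuadraticMap.map_add (⇑Q), QuadraticMap.map_smul, QuadraticMap.polar_add_left,
      QuadraticMap.polar_smul_left, QuadraticMap.polar_smul_right, smul_eq_mul, hQd, hpol, hP]
    simp
    linear_combination (2 * a) * hxy.1
  have hco : ∀ r : Fin 6, r ∈ ({0, 1, 3, 4} : Finset (Fin 6)) → QuadraticMap.polar Q (d (P r)) b ≠ 0 := by
    intro r hr
    simp only [hbdef, QuadraticMap.polar_add_right, QuadraticMap.polar_smul_right, smul_eq_mul, hpol, hP]
    fin_cases r <;> simp at hr ⊢ <;> simp [h2a, hxy.2, h2, ha]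
  obtain ⟨S, hS, hzero⟩ := key b hQb fun h => hco 0 (by simp) (by rw [h]; simp [QuadraticMap.polar])
  have hsub : ({0, 1, 3, 4} : Finset (Fin 6)).image P ⊆ S := fun z hz => by
    obtain ⟨r, hr, rfl⟩ := Finset.mem_image.mp hz
    by_contra h
    exact hco r hr (hzero _ h)
  have hcard := Finset.card_le_card hsub
  rw [Finset.card_image_of_injective _ fun r s h => (hP r s).mp h] at hcard
  have : ({0, 1, 3, 4} : Finset (Fin 6)).card = 4 := by decide
  omega

/-- A field subalgebra normalised by all of `Ω` has degree at most two. -/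
theorem not_le_field (hQ : (BQ).Nondegenerate) (hn : 7 ≤ Fintype.card ι)
    {r : ℕ} (hr : 2 < r) (hrn : r ≤ Fintype.card ι)
    {K : Subalgebra F (Matrix ι ι F)} (hK : Cfsg.Geo.IsFieldSubalgebra r K) :
    ¬ Ωg ≤ Cfsg.Geo.subalgebraNormalizer K := by
  classical
  intro hle
  have hI := isForm_quadratic Q hQ
  obtain ⟨b, hb0, hb⟩ := exists_singular_of_three_le Q (by rw [Module.finrank_pi]; omega)
  set L := Submodule.span F ({b} : Set (ι → F))
  set X := perp BQ L
  obtain ⟨C₀, hC₀⟩ := Submodule.exists_isCompl L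
  set C := X ⊓ C₀
  have hbL : b ∈ L := Submodule.mem_span_singleton_self b
  have hC : Fintype.card ι - 2 ≤ finrank F C := by
    have h1 := Submodule.finrank_sup_add_finrank_inf_eq X C₀
    have h2 := hI.finrank_perp L
    have h3 := Submodule.finrank_add_eq_of_isCompl hC₀
    have h4 := Submodule.finrank_le (X ⊔ C₀)
    have h5 : finrank F L ≤ 1 := (finrank_span_le_card {b}).trans (by simp)
    show Fintype.card ι - 2 ≤ finrank F ↥(X ⊓ C₀)
    change finrank F X + _ = _ at h2
    rw [Module.finrank_pi] at h2 h3 h4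
    omega
  have hCb : ∀ u : C, QuadraticMap.polar Q b (u : ι → F) = 0 := fun u => by
    simpa using mem_perp_span_singleton.mp u.2.1
  choose G hG hGr using fun u : C => exists_root hQ hn hb (hCb u)
  have hinj : ∀ u : C, u ≠ 0 → (u : ι → F) ∉ L := fun u hu h => hu (Subtype.ext
    (Submodule.disjoint_def.mp hC₀.disjoint _ h u.2.2))
  have hf : IsField K := by
    refine ⟨⟨0, 1, fun h => ?_⟩, fun a c => Subtype.ext (hK.comm a a.2 c c.2), fun {a} ha => ?_⟩
    · haveI : Nonempty ι := Fintype.card_pos_iff.mp (by omega)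
      exact zero_ne_one (α := Matrix ι ι F) (congrArg Subtype.val h)
    · obtain ⟨y, hy, hay⟩ := hK.inv a a.2 (fun h => ha (Subtype.ext h))
      exact ⟨⟨y, hy⟩, Subtype.ext hay⟩
  letI : Field K := hf.toField
  haveI : Module.Finite F K := inferInstance
  haveI : Finite K := Module.finite_of_finite F
  let σ : C → (K →ₐ[F] K) := fun u =>
    { toFun := fun a => ⟨(G u : Matrix ι ι F) * (a : Matrix ι ι F) * ((G u)⁻¹ : GL ι F).val, (hle (hG u) a).1 a.2⟩
      map_one' := Subtype.ext (by simp)
      map_mul' := fun a c => Subtype.ext (by simp [mul_assoc])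
      map_zero' := Subtype.ext (by simp)
      map_add' := fun a c => Subtype.ext (by simp [mul_add, add_mul])
      commutes' := fun a => Subtype.ext (by simp [Algebra.algebraMap_eq_smul_one]) }
  obtain ⟨u, u', huu, hσ⟩ : ∃ u u' : C, u ≠ u' ∧ σ u = σ u' := by
    by_contra hcon
    push Not at hcon
    haveI : Finite (K →ₐ[F] K) := Finite.of_injective _ DFunLike.coe_injective
    have h1 := Nat.card_le_card_of_injective σ fun u u' e => by_contra fun h => hcon u u' h e
    have h3 : Nat.card (K →ₐ[F] K) = r := by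
      rw [Nat.card_congr (Algebra.IsAlgebraic.algEquivEquivAlgHom F K).toEquiv.symm,
        IsGalois.card_aut_eq_finrank, hK.finrank_eq]
    rw [Nat.card_eq_fintype_card (α := C), Module.card_eq_pow_finrank (K := F)] at h1
    have hq := Fintype.one_lt_card (α := F)
    have h4 : 2 ^ (Fintype.card ι - 2) ≤ Fintype.card F ^ finrank F C :=
      (Nat.pow_le_pow_left hq _).trans (Nat.pow_le_pow_right (by omega) hC)
    have h5 : Fintype.card ι < 2 ^ (Fintype.card ι - 2) := by
      obtain ⟨k, hk⟩ : ∃ k, Fintype.card ι = k + 7 := ⟨_, (Nat.sub_add_cancel hn).symm⟩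
      rw [hk, show k + 7 - 2 = k + 5 by omega]
      clear * -
      induction k with
      | zero => norm_num
      | succ k ih => rw [show k + 1 + 5 = k + 5 + 1 by ring, pow_succ]; omega
    omega
  set w := u' - u
  have hw : w ≠ 0 := sub_ne_zero.mpr (Ne.symm huu)
  have hprod : G u' = G u * G w := isRoot_unique (hGr u') (by
    have := isRoot_mul hb (hCb u) (hCb w) (hGr u) (hGr w)
    simpa [w] using this)
  have hcen : ∀ a : K, (G w : Matrix ι ι F) * (a : Matrix ι ι F) = (a : Matrix ι ι F) * (G w : Matrix ι ι F) := by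
    intro a
    have h : (G u : Matrix ι ι F) * (a : Matrix ι ι F) * ((G u)⁻¹ : GL ι F).val =
      (G u' : Matrix ι ι F) * (a : Matrix ι ι F) * ((G u')⁻¹ : GL ι F).val :=
        congrArg (fun f : K →ₐ[F] K => ((f a : K) : Matrix ι ι F)) hσ
    rw [hprod, _root_.mul_inv_rev, Units.val_mul, Units.val_mul] at h
    have h' := congrArg (fun M => ((G u)⁻¹ : GL ι F).val * M * (G u : Matrix ι ι F) * (G w : Matrix ι ι F)) h
    simp only [mul_assoc] at h'
    simpa [← mul_assoc] using h'.symm
  obtain ⟨x, hx⟩ := root_moves hQ hb0 (hinj w hw) (hGr w)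
  set y := (G w : Matrix ι ι F) *ᵥ x - x
  have hy : y ≠ 0 := sub_ne_zero.mpr hx
  let Φ : K →ₗ[F] Submodule.span F ({b, (w : ι → F)} : Set (ι → F)) :=
    { toFun := fun a => ⟨(a : Matrix ι ι F) *ᵥ y, by
        have := root_sub_mem (hGr w) ((a : Matrix ι ι F) *ᵥ x)
        rwa [Matrix.mulVec_mulVec, hcen a, ← Matrix.mulVec_mulVec, ← Matrix.mulVec_sub] at this⟩
      map_add' := fun a c => Subtype.ext (by simp [Matrix.add_mulVec])
      map_smul' := fun c a => Subtype.ext (by simp [Matrix.smul_mulVec]) }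
  have hΦ : Function.Injective Φ := fun a c e => by
    by_contra hne
    have h0 : ((a : Matrix ι ι F) - (c : Matrix ι ι F)) *ᵥ y = 0 := by
      rw [Matrix.sub_mulVec, sub_eq_zero]; exact congrArg Subtype.val e
    obtain ⟨z, -, hz⟩ := hK.inv _ (K.sub_mem a.2 c.2) (sub_ne_zero.mpr fun h => hne (Subtype.ext h))
    apply hy
    rw [← Matrix.one_mulVec y, ← mul_eq_one_comm.mp hz, ← Matrix.mulVec_mulVec, h0, Matrix.mulVec_zero]
  have h1 := LinearMap.finrank_le_finrank_of_injective hΦ
  rw [hK.finrank_eq] at h1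
  have := finrank_pair_le (F := F) b (w : ι → F)
  omega

/-- The elements of a proper subfield structure do not exhaust `Ω`. -/
theorem not_le_subfield (hQ : (BQ).Nondegenerate) (h2 : (2 : F) ≠ 0) (hn : 7 ≤ Fintype.card ι)
    {F₀ : Subfield F} (hF₀ : F₀ ≠ ⊤) (P : GL ι F) : ¬ Ωg ≤ Cfsg.Geo.subfieldSubgroup F₀ P := by
  classical
  intro hle
  haveI hp : Fact (ringChar F).Prime := ⟨CharP.char_is_prime F _⟩
  have hmem : ∀ g ∈ Ωg, g ^ ringChar F = 1 → ∀ i j, ((P⁻¹ * g * P : GL ι F) : Matrix ι ι F) i j ∈ F₀ := by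
    intro g hg hgp
    obtain ⟨x, hx, hxg⟩ := Subgroup.mem_map.mp (hle hg)
    obtain ⟨A, hA, z, hz, rfl⟩ := Subgroup.mem_sup_of_normal_right.mp hx
    obtain ⟨A, rfl⟩ := hA
    obtain ⟨c, hc⟩ := (Cfsg.Geo.mem_scalars_iff z).mp hz
    set h := Matrix.GeneralLinearGroup.map (F₀.subtype : F₀ →+* F) A * z with hh
    have e : P⁻¹ * g * P = h := by
      rw [← hxg]; simp [mul_assoc]
    have hm : (h : Matrix ι ι F) = (c : F) • (A : Matrix ι ι F₀).map F₀.subtype := by
      rw [hh, Units.val_mul, hc, Matrix.mul_smul, Matrix.mul_one]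
      rfl
    have hp1 : h ^ ringChar F = 1 := by
      have := conj_pow (a := P⁻¹) (b := g) (i := ringChar F)
      rw [inv_inv] at this
      rw [← e, this, hgp]
      simp
    have hcF : (c : F) ∈ F₀ := by
      have h1 := congrArg (fun z : GL ι F => (z : Matrix ι ι F)) hp1
      rw [Units.val_pow_eq_pow_val, hm, smul_pow, ← RingHom.mapMatrix_apply, ← map_pow, Units.val_one] at h1
      haveI : Nonempty ι := Fintype.card_pos_iff.mp (by omega)
      obtain ⟨i⟩ := (inferInstance : Nonempty ι)
      have h2 := congrFun (congrFun h1 i) i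
      rw [Matrix.smul_apply, RingHom.mapMatrix_apply, Matrix.map_apply, Matrix.one_apply_eq, smul_eq_mul] at h2
      have hcp : (c : F) ^ ringChar F ∈ F₀ := by
        rw [eq_inv_of_mul_eq_one_left h2]
        exact inv_mem (SetLike.coe_mem _)
      haveI : CharP F₀ (ringChar F) := (F₀.subtype).charP F₀.subtype.injective _
      obtain ⟨d, hd⟩ := (Finite.injective_iff_surjective.mp (frobenius_inj F₀ (ringChar F))) ⟨_, hcp⟩
      have : (d : F) = c := frobenius_inj F (ringChar F) (by
        have := congrArg Subtype.val hd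
        simpa [frobenius_def] using this)
      exact this ▸ d.2
    intro i j
    rw [e, hm, Matrix.smul_apply, smul_eq_mul, Matrix.map_apply]
    exact mul_mem hcF (SetLike.coe_mem _)
  obtain ⟨b, hb0, hb⟩ := exists_singular_of_three_le Q (by rw [Module.finrank_pi]; omega)
  obtain ⟨v, hbv, hQv⟩ := exists_perp_anisotropic hQ (by omega) b
  let T : (ι → F) →ₗ[F] (ι → F) :=
    (QuadraticMap.polarBilin Q b).smulRight v - (QuadraticMap.polarBilin Q v).smulRight b
  set N := ((P⁻¹ : GL ι F) : Matrix ι ι F) * LinearMap.toMatrix' T * (P : Matrix ι ι F)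
  have hsc : ∀ (s : F) i j, 2 * s * N i j ∈ F₀ := by
    intro s
    have hbs : QuadraticMap.polar Q b (s • v) = 0 := by rw [QuadraticMap.polar_smul_right, hbv, smul_zero]
    have hbs' : QuadraticMap.polar Q b (-(s • v)) = 0 := by rw [QuadraticMap.polar_neg_right, hbs, neg_zero]
    obtain ⟨g, hg, hgr⟩ := exists_root hQ hn hb hbs
    obtain ⟨g', hg', hgr'⟩ := exists_root hQ hn hb hbs'
    have hdiff : (g : Matrix ι ι F) - (g' : Matrix ι ι F) = (2 * s) • LinearMap.toMatrix' T := by
      refine Matrix.ext_of_mulVec_single fun i => ?_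
      rw [Matrix.sub_mulVec, hgr, hgr', Matrix.smul_mulVec, LinearMap.toMatrix'_mulVec, eichlerMap_apply,
        eichlerMap_apply, QuadraticMap.map_neg, QuadraticMap.polar_neg_left, QuadraticMap.polar_smul_left]
      simp only [T, LinearMap.sub_apply, LinearMap.smulRight_apply, QuadraticMap.polarBilin_apply_apply, smul_eq_mul]
      module
    intro i j
    have h := sub_mem (hmem g hg (isRoot_pow_char hb hbs hgr) i j) (hmem g' hg' (isRoot_pow_char hb hbs' hgr') i j)
    rwa [← Matrix.sub_apply, Units.val_mul, Units.val_mul, Units.val_mul, Units.val_mul, ← Matrix.sub_mul,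
      ← Matrix.mul_sub, hdiff, Matrix.mul_smul, Matrix.smul_mul, Matrix.smul_apply, smul_eq_mul] at h
  have hN : N = 0 := by
    ext i j
    rw [Matrix.zero_apply]
    by_contra h0
    refine hF₀ (eq_top_iff.mpr fun z _ => ?_)
    have h := mul_mem (hsc z i j) (inv_mem (hsc 1 i j))
    rwa [show 2 * z * N i j * (2 * 1 * N i j)⁻¹ = z by field_simp] at h
  have hT : LinearMap.toMatrix' T = 0 := by
    have : (P : Matrix ι ι F) * N * ((P⁻¹ : GL ι F) : Matrix ι ι F) = LinearMap.toMatrix' T := by
      simp [N, mul_assoc]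
    rw [← this, hN, Matrix.mul_zero, Matrix.zero_mul]
  have hT0 : T = 0 := LinearMap.toMatrix'.injective (by rw [hT, map_zero])
  have h := LinearMap.congr_fun hT0 v
  simp only [T, LinearMap.sub_apply, LinearMap.smulRight_apply, QuadraticMap.polarBilin_apply_apply, hbv, zero_smul,
    zero_sub, LinearMap.zero_apply, neg_eq_zero, polar_self_two_mul] at h
  exact hb0 ((smul_eq_zero.mp h).resolve_left (mul_ne_zero h2 hQv))

end Cfsg.Agent.GeomClasses.OddMax
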