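import Cfsg.Agent.GeomClasses.OddMax.Root
import Cfsg.Agent.GeomClasses.MaxList.NotContain

/-! # `Ω` of a nine-dimensional space fixes no tensor square -/

set_option autoImplicit false

namespace Cfsg.Agent.GeomClasses.OddMax

open Matrix Cfsg.Agent.Forms Module
open scoped Kronecker

variable {ι : Type} [Fintype ι] [DecidableEq ι] {F : Type*} [Field F] [Fintype F] {Q : QuadraticForm F (ι → F)}

local notation "BQ" => QuadraticMap.polarBilin Q
set_option quotPrecheck false in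
local notation "Ωg" => Cfsg.Geo.omegaGL (DFunLike.coe Q)

omit [Fintype F] in
/-- Kronecker products as a homomorphism. -/
def kronHom : GL (Fin 3) F × GL (Fin 3) F →* GL (Fin 3 × Fin 3) F :=
  MonoidHom.toHomUnits
    { toFun := fun p => (p.1 : Matrix (Fin 3) (Fin 3) F) ⊗ₖ (p.2 : Matrix (Fin 3) (Fin 3) F)
      map_one' := by simp [Matrix.one_kronecker_one]
      map_mul' := fun p p' => by simp [Matrix.mul_kronecker_mul] }

theorem kronHom_range_dvd : Nat.card (kronHom (F := F)).range ∣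
    ((Fintype.card F ^ 3 - 1) * (Fintype.card F ^ 3 - Fintype.card F) *
      (Fintype.card F ^ 3 - Fintype.card F ^ 2)) ^ 2 := by
  refine (Subgroup.card_range_dvd _).trans ?_
  rw [Nat.card_prod, Matrix.card_GL_field]
  simp [Fin.prod_univ_three, pow_two, mul_assoc]

theorem not_le_tensor_square (hQ : (BQ).Nondegenerate) (h2 : (2 : F) ≠ 0) (hn : Fintype.card ι = 9)
    (e : ι ≃ (Fin 2 → Fin 3)) (P : GL ι F) : ¬ Ωg ≤ Cfsg.Geo.tensorWreathSubgroup 3 2 e P := by
  classical
  intro hle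
  let ψ : GL ι F →* GL (Fin 3 × Fin 3) F :=
    ((Cfsg.Geo.glReindex (F := F) (piFinTwoEquiv fun _ => Fin 3)).toMonoidHom.comp
      (Cfsg.Geo.glReindex (F := F) e).toMonoidHom).comp (MulAut.conj P⁻¹).toMonoidHom
  have hψinj : Function.Injective ψ := fun a c h => (MulAut.conj P⁻¹).injective
    ((Cfsg.Geo.glReindex (F := F) e).injective ((Cfsg.Geo.glReindex (F := F) (piFinTwoEquiv fun _ => Fin 3)).injective h))
  have hmem : ∀ h ∈ Ωg, ψ (h * h) ∈ (kronHom (F := F)).range := by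
    intro h hh
    obtain ⟨x, hx, hxh⟩ := Subgroup.mem_map.mp (hle hh)
    obtain ⟨s, hs, hsx⟩ := Subgroup.mem_map.mp hx
    obtain ⟨σ, gs', hgs'⟩ := MaxList.wreath_mem hs
    obtain ⟨gs, hgs⟩ : ∃ gs : Fin 2 → Matrix (Fin 3) (Fin 3) F, ∀ x y,
        (s : Matrix (Fin 2 → Fin 3) (Fin 2 → Fin 3) F) x y = ∏ i, gs i (x i) (y (σ i)) :=
      ⟨fun i => (gs' i : Matrix (Fin 3) (Fin 3) F), hgs'⟩
    have hψh : ψ h = Cfsg.Geo.glReindex (piFinTwoEquiv fun _ => Fin 3) s := by
      show Cfsg.Geo.glReindex (piFinTwoEquiv fun _ => Fin 3)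
        (Cfsg.Geo.glReindex e (MulAut.conj P⁻¹ h)) = _
      congr 1
      rw [← hxh, ← hsx]
      apply Units.ext
      simp [MulAut.conj_apply, Cfsg.Geo.glReindex, mul_assoc]
    have hσ : σ * σ = 1 := (by decide : ∀ τ : Equiv.Perm (Fin 2), τ * τ = 1) σ
    have hss : ∀ x y : Fin 2 → Fin 3, ((s * s : GL (Fin 2 → Fin 3) F) : Matrix (Fin 2 → Fin 3) (Fin 2 → Fin 3) F) x y =
        (gs 0 * gs (σ 0)) (x 0) (y 0) * (gs 1 * gs (σ 1)) (x 1) (y 1) := by
      intro x y
      rw [Units.val_mul, Matrix.mul_apply, ← Fin.prod_univ_two (fun i => (gs i * gs (σ i)) (x i) (y i))]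
      simp only [hgs, Matrix.mul_apply]
      rw [Fintype.prod_sum]
      refine Fintype.sum_equiv (Equiv.arrowCongr σ.symm (Equiv.refl (Fin 3))) _ _ fun z => ?_
      rw [← Equiv.prod_comp σ (fun i => gs i (z i) (y (σ i))), ← Finset.prod_mul_distrib]
      refine Finset.prod_congr rfl fun i _ => ?_
      have : σ (σ i) = i := congrArg (fun f : Equiv.Perm (Fin 2) => f i) hσ
      simp [this]
    set A := gs 0 * gs (σ 0)
    set B := gs 1 * gs (σ 1)
    have hval : ((Cfsg.Geo.glReindex (piFinTwoEquiv fun _ => Fin 3) (s * s) : GL (Fin 3 × Fin 3) F) :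
        Matrix (Fin 3 × Fin 3) (Fin 3 × Fin 3) F) = A ⊗ₖ B := by
      ext ⟨i, j⟩ ⟨i', j'⟩
      show ((s * s : GL (Fin 2 → Fin 3) F) : Matrix (Fin 2 → Fin 3) (Fin 2 → Fin 3) F) ((piFinTwoEquiv fun _ => Fin 3).symm (i, j))
        ((piFinTwoEquiv fun _ => Fin 3).symm (i', j')) = _
      rw [hss]
      rfl
    have hdet : (A ⊗ₖ B).det ≠ 0 := hval ▸ ((Matrix.isUnit_iff_isUnit_det _).mp (Units.isUnit _)).ne_zero
    rw [Matrix.det_kronecker] at hdet
    have hA : A.det ≠ 0 := fun h0 => hdet (by simp [h0])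
    have hB : B.det ≠ 0 := fun h0 => hdet (by simp [h0])
    refine ⟨(Matrix.GeneralLinearGroup.mkOfDetNeZero A hA, Matrix.GeneralLinearGroup.mkOfDetNeZero B hB), ?_⟩
    rw [map_mul, hψh, ← map_mul]
    exact Units.ext hval.symm
  have hI := isForm_quadratic Q hQ
  obtain ⟨b, hb0, hb⟩ := exists_singular_of_three_le Q (by rw [Module.finrank_pi]; omega)
  set L := Submodule.span F ({b} : Set (ι → F))
  set X := perp BQ L
  obtain ⟨C₀, hC₀⟩ := Submodule.exists_isCompl L
  set C := X ⊓ C₀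
  have hC : 7 ≤ finrank F C := by
    have h1 := Submodule.finrank_sup_add_finrank_inf_eq X C₀
    have h2 := hI.finrank_perp L
    have h3 := Submodule.finrank_add_eq_of_isCompl hC₀
    have h4 := Submodule.finrank_le (X ⊔ C₀)
    have h5 : finrank F L ≤ 1 := (finrank_span_le_card {b}).trans (by simp)
    show 7 ≤ finrank F ↥(X ⊓ C₀)
    change finrank F X + _ = _ at h2
    rw [Module.finrank_pi] at h2 h3 h4
    omega
  have hCb : ∀ u : C, QuadraticMap.polar Q b (u : ι → F) = 0 := fun u => by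
    simpa using mem_perp_span_singleton.mp u.2.1
  choose G hG hGr using fun u : C => exists_root hQ (by omega) hb (hCb u)
  have hmul : ∀ u w : C, G (u + w) = G u * G w := fun u w =>
    isRoot_unique (hGr _) (isRoot_mul hb (hCb u) (hCb w) (hGr u) (hGr w))
  let Φ : Multiplicative C →* GL (Fin 3 × Fin 3) F := ψ.comp
    (MonoidHom.mk' (fun u => G (Multiplicative.toAdd u)) fun u w => hmul _ _)
  have hΦinj : Function.Injective Φ := by
    rw [injective_iff_map_eq_one]
    intro u hu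
    by_contra hne
    have h0 : Multiplicative.toAdd u ≠ 0 := fun h => hne (Multiplicative.toAdd.injective h)
    obtain ⟨x, hx⟩ := root_moves hQ hb0 (fun h => h0 (Subtype.ext
      (Submodule.disjoint_def.mp hC₀.disjoint _ h (Multiplicative.toAdd u).2.2))) (hGr (Multiplicative.toAdd u))
    have hg : G (Multiplicative.toAdd u) = 1 := hψinj (hu.trans (map_one ψ).symm)
    exact hx (by rw [hg, Units.val_one, Matrix.one_mulVec])
  have hrange : Φ.range ≤ (kronHom (F := F)).range := by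
    rintro _ ⟨u, rfl⟩
    set w := Multiplicative.toAdd u
    have : (2⁻¹ : F) • w + (2⁻¹ : F) • w = w := by rw [← add_smul, ← two_mul, mul_inv_cancel₀ h2, one_smul]
    show ψ (G w) ∈ _
    rw [← this, hmul]
    exact hmem _ (hG _)
  have hdvd := (Subgroup.card_dvd_of_le hrange).trans kronHom_range_dvd
  rw [← Nat.card_congr (Φ.ofInjective hΦinj).toEquiv, Nat.card_congr Multiplicative.toAdd, Nat.card_eq_fintype_card,
    Module.card_eq_pow_finrank (K := F)] at hdvd
  have h7 := (pow_dvd_pow (Fintype.card F) hC).trans hdvd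
  set q := Fintype.card F
  have hq : 1 < q := Fintype.one_lt_card
  have he : ((q ^ 3 - 1) * (q ^ 3 - q) * (q ^ 3 - q ^ 2)) ^ 2 = q ^ 6 * ((q ^ 3 - 1) * (q ^ 2 - 1) * (q - 1)) ^ 2 := by
    rw [show q ^ 3 - q = q * (q ^ 2 - 1) by rw [Nat.mul_sub, mul_one, ← pow_succ'],
      show q ^ 3 - q ^ 2 = q ^ 2 * (q - 1) by rw [Nat.mul_sub, mul_one, ← pow_succ]]
    ring
  rw [he, pow_succ] at h7
  have hX := Nat.dvd_of_mul_dvd_mul_left (pow_pos (by omega) 6) h7
  have hc : ∀ k, 1 ≤ k → Nat.Coprime q (q ^ k - 1) := fun k hk => by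
    have h1 : 1 ≤ q ^ k := Nat.one_le_pow _ _ (by omega)
    have h2 : Nat.Coprime (q ^ k) (q ^ k - 1) := by
      conv_lhs => rw [← Nat.sub_add_cancel h1]
      simp [Nat.coprime_self_add_left]
    exact h2.coprime_dvd_left (dvd_pow_self q (by omega))
  have hco : Nat.Coprime q (((q ^ 3 - 1) * (q ^ 2 - 1) * (q - 1)) ^ 2) :=
    (((hc 3 (by omega)).mul_right (hc 2 (by omega))).mul_right (by simpa using hc 1 le_rfl)).pow_right 2
  have := hco.eq_one_of_dvd hX
  omega

end Cfsg.Agent.GeomClasses.OddMax
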