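import Cfsg.Agent.GeomClasses.Aschbacher.Rel.OrthOddMain
import Cfsg.Agent.GeomClasses.OddMax.Rigid
import Cfsg.Agent.GeomClasses.OddMax.Tensor
import Cfsg.Agent.GeomClasses.OddMax.Refine
import Cfsg.Agent.GeomClasses.OrthTools
import Cfsg.Agent.GeomClasses.MaxList.NotContain
import Cfsg.Agent.Forms.Models

/-! # The kinds of maximal subgroups of `Ω` in dimensions seven, nine and eleven -/

set_option autoImplicit false

namespace Cfsg.Agent.GeomClasses.OddMax

open Matrix Cfsg.Agent.Forms Module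
open Cfsg.Agent.GeomClasses.MaxList (eq_of_le)

variable {F : Type*} [Field F] [Fintype F]

omit [Fintype F] in
/-- The degree of a field subalgebra divides the dimension. -/
theorem field_dvd_card {ι : Type} [Fintype ι] [DecidableEq ι] {r : ℕ} {K : Subalgebra F (Matrix ι ι F)}
    (hK : Cfsg.Geo.IsFieldSubalgebra r K) (hr : 2 ≤ r) : r ∣ Fintype.card ι := by
  classical
  haveI : Nontrivial K := Module.nontrivial_of_finrank_pos (R := F) (by
    show 0 < Module.finrank F K
    rw [hK.finrank_eq]; omega)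
  have hfield : IsField K :=
    { exists_pair_ne := exists_pair_ne _
      mul_comm := fun x y => Subtype.ext (hK.comm x x.2 y y.2)
      mul_inv_cancel := fun {x} hx => by
        obtain ⟨y, hy, hxy⟩ := hK.inv x x.2 (fun h => hx (Subtype.ext h))
        exact ⟨⟨y, hy⟩, Subtype.ext hxy⟩ }
  let φ : K →+* Module.End F (ι → F) :=
    (Matrix.toLinAlgEquiv' : Matrix ι ι F ≃ₐ[F] _).toAlgHom.toRingHom.comp K.val.toRingHom
  letI : Module K (ι → F) := Module.compHom _ φ
  have tower : ∀ (c : F) (k : K) (v : ι → F), (c • k) • v = c • (k • v) := fun c k v => by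
    show Matrix.toLinAlgEquiv' ((c • k : K) : Matrix ι ι F) v = c • Matrix.toLinAlgEquiv' (k : Matrix ι ι F) v
    rw [show ((c • k : K) : Matrix ι ι F) = c • (k : Matrix ι ι F) from rfl, map_smul]
    rfl
  haveI : StrongRankCondition K := by
    letI : Field K := hfield.toField
    exact commRing_strongRankCondition K
  haveI : Module.Free K (ι → F) := by
    letI : Field K := hfield.toField
    exact Module.Free.of_divisionRing K (ι → F)
  have h := @Module.finrank_mul_finrank F K (ι → F) _ _ _ _ _ _ ⟨tower⟩ _ _ _ _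
  rw [Module.finrank_pi] at h
  rw [show Module.finrank F K = r from hK.finrank_eq] at h
  exact ⟨_, h.symm⟩

variable {m : ℕ}

local notation "ι" => (Unit ⊕ (Fin m ⊕ Fin m))
local notation "Qo" => Cfsg.quadFormOdd m F
local notation "Ωo" => Cfsg.Geo.omegaGL (Cfsg.quadFormOdd m F)

/-- The maximal subgroups of `Ω` in odd dimension at most eleven, sorted. -/
theorem odd_cases (hodd : Odd (Fintype.card F)) (hm : 3 ≤ m) (hm' : m ≤ 5) (H : Subgroup (GL ι F))
    (hH : Cfsg.Geo.IsMaximalIn Ωo H) :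
    (∃ W : Submodule F (ι → F), W ≠ ⊥ ∧ Cfsg.Geo.IsTotallySingularQuad Qo W ∧
      H = Cfsg.Geo.subspaceStabilizer W ⊓ Ωo) ∨
    (∃ W : Submodule F (ι → F), W ≠ ⊥ ∧ Even (Module.finrank F W) ∧
      Cfsg.Geo.IsNondegenerateOn (QuadraticMap.polar Qo) W ∧
      ¬ (Fintype.card F = 3 ∧ Module.finrank F W = 2 ∧ Cfsg.Geo.IsPlusTypeOn Qo W) ∧
      H = Cfsg.Geo.subspaceStabilizer W ⊓ Ωo) ∨
    ((Fintype.card F).Prime ∧ ∃ D : Fin (2 * m + 1) → Submodule F (ι → F),
      Cfsg.Geo.IsOrthogonalMDecomposition Qo 1 D ∧ H = Cfsg.Geo.decompositionStabilizer D ⊓ Ωo) ∨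
    (m = 4 ∧ 5 ≤ Fintype.card F ∧ ∃ D : Fin 3 → Submodule F (ι → F),
      Cfsg.Geo.IsOrthogonalMDecomposition Qo 3 D ∧ H = Cfsg.Geo.decompositionStabilizer D ⊓ Ωo) ∨
    (m = 4 ∧ ∃ K : Subalgebra F (Matrix ι ι F), Cfsg.Geo.IsFieldSubalgebra 3 K ∧
      Cfsg.Geo.IsSelfAdjointFor (QuadraticMap.polar Qo) K ∧ H = Cfsg.Geo.subalgebraNormalizer K ⊓ Ωo) ∨
    (∃ (F₀ : Subfield F) (r : ℕ) (P : GL ι F), r.Prime ∧ Fintype.card F = Nat.card F₀ ^ r ∧
      Cfsg.Geo.IsQuadFormRationalStructure Qo F₀ P ∧ H = Cfsg.Geo.subfieldSubgroup F₀ P ⊓ Ωo) ∨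
    (m = 4 ∧ 5 ≤ Fintype.card F ∧ ∃ (e : ι ≃ (Fin 2 → Fin 3)) (P : GL ι F) (f₁ : (Fin 3 → F) → (Fin 3 → F) → F),
      Cfsg.Geo.IsSymmetricForm f₁ ∧ Cfsg.Geo.IsTensorPowerFormStructure id (QuadraticMap.polar Qo) f₁ e P ∧
      H = Cfsg.Geo.tensorWreathSubgroup 3 2 e P ⊓ Ωo) ∨
    Cfsg.Geo.InOrthogonalResidualClass H := by
  classical
  have h2 : (2 : F) ≠ 0 := two_ne_zero_of_odd_card hodd
  have hq5 : Fintype.card F ≠ 3 → 5 ≤ Fintype.card F := fun h => by
    have := Fintype.one_lt_card (α := F)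
    rw [Nat.odd_iff] at hodd; omega
  obtain ⟨Q', hQ', hB⟩ : ∃ Q' : QuadraticForm F (ι → F),
      ⇑Q' = Qo ∧ (QuadraticMap.polarBilin Q').Nondegenerate :=
    ⟨_, Forms.coe_qOdd m F, Forms.qOdd_nondegenerate h2⟩
  have hcard : Fintype.card ι = 2 * m + 1 := by simp; omega
  have hn : 7 ≤ Fintype.card ι := by omega
  rw [← hQ'] at hH ⊢
  have hΩI : Cfsg.Geo.omegaGL ⇑Q' ≤ Cfsg.isometryGroup F ⇑Q' := Subgroup.map_subtype_le _
  rcases AschRel.odd_structure h2 hm H (hQ' ▸ hH.1.le.trans hΩI) with ⟨M, hM, hle⟩ | hres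
  swap
  · iterate 7 right
    exact hres
  rcases hM with ⟨W, hW0, hW, rfl⟩ | ⟨W, hW0, hW1, hW, rfl⟩ | ⟨t, k, D, hk, hD, rfl⟩ | ⟨t, D, hp, hD, rfl⟩ |
    ⟨r, K, hr, hrn, hK, hsa, rfl⟩ | ⟨n₁, n₂, e, P, f₁, f₂, h1, h12, -, -, -, rfl⟩ |
    ⟨F₀, r, P, hr, hc, hP, rfl⟩ | ⟨k, t, e, P, f₁, hk, ht, hex, hf, hT, rfl⟩
  · -- totally singular
    rw [← hQ'] at hW
    have hne : W ≠ ⊤ := fun e => by
      obtain ⟨w, -, hw0⟩ := Submodule.exists_mem_ne_zero_of_ne_bot hW0
      refine hw0 (hB.1 w fun v => ?_)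
      exact polar_ts (Q := Q') hW (e ▸ Submodule.mem_top) (e ▸ Submodule.mem_top)
    exact Or.inl ⟨W, hW0, hW, eq_of_le hH (hle.trans inf_le_left) (not_le_stab hB h2 hn hW0 hne)⟩
  · -- nondegenerate
    rw [← hQ'] at hW
    right; left
    have hI := isForm_quadratic Q' hB
    have hnd : ∀ u ∈ W, (∀ v ∈ W, QuadraticMap.polarBilin Q' u v = 0) → u = 0 := fun u hu h => by
      by_contra h0
      obtain ⟨-, x, hx, hne⟩ := hW u hu h0
      exact hne (h x hx)
    set W' := perp (QuadraticMap.polarBilin Q') W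
    have hW'dim : finrank F W' + finrank F W = 2 * m + 1 := by
      rw [hI.finrank_perp, Module.finrank_pi, hcard]
    have hWne : finrank F W ≠ 0 := fun h => hW0 (Submodule.finrank_eq_zero.mp h)
    have hWlt : finrank F W < 2 * m + 1 := by
      have := Submodule.finrank_lt hW1
      rwa [Module.finrank_pi, hcard] at this
    have hperpstab : ∀ (X : Submodule F (ι → F)) (g : GL ι F), g ∈ Cfsg.Geo.omegaGL ⇑Q' →
        g ∈ Cfsg.Geo.subspaceStabilizer X →
        g ∈ Cfsg.Geo.subspaceStabilizer (perp (QuadraticMap.polarBilin Q') X) := by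
      intro X g hg hgX
      rw [mem_subspaceStabilizer_iff]
      intro v hv x hx
      have hinv := mem_subspaceStabilizer_iff.mp (inv_mem hgX) x hx
      have h := hv _ hinv
      simp only [QuadraticMap.polarBilin_apply_apply] at h ⊢
      have hpres : ∀ a b, QuadraticMap.polar Q' ((g : Matrix ι ι F) *ᵥ a) ((g : Matrix ι ι F) *ᵥ b) =
          QuadraticMap.polar Q' a b := fun a b => by
        simp only [QuadraticMap.polar, ← Matrix.mulVec_add, omegaGL_preserves Q' hg]
      rw [← hpres, Matrix.mulVec_mulVec, ← Units.val_mul, mul_inv_cancel, Units.val_one, Matrix.one_mulVec] at h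
      exact h
    have hW'nd : Cfsg.Geo.IsNondegenerateOn (QuadraticMap.polar ⇑Q') W' := by
      intro u hu hu0
      have h := hI.perp_nondeg hnd u hu
      obtain ⟨v, hv, hne⟩ : ∃ v ∈ W', QuadraticMap.polar Q' u v ≠ 0 := by
        by_contra hcon
        push Not at hcon
        exact hu0 (h fun v hv => by simpa using hcon v hv)
      exact ⟨⟨v, hv, by rwa [QuadraticMap.polar_comm]⟩, ⟨v, hv, hne⟩⟩
    by_cases hev : Even (finrank F W)
    · by_cases hexc : Fintype.card F = 3 ∧ finrank F W = 2 ∧ Cfsg.Geo.IsPlusTypeOn (⇑Q') W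
      · -- a plus plane over three elements: pass to the perp of a fixed line
        exfalso
        obtain ⟨K, hK1, hK2⟩ := exists_between_plane Q' hexc.1.le hexc.2.1 hW hexc.2.2 (by omega) hB
        have hHeq : H = Cfsg.Geo.subspaceStabilizer W ⊓ Cfsg.Geo.omegaGL ⇑Q' :=
          eq_of_le hH (hle.trans inf_le_left) (not_le_stab hB h2 hn hW0 hW1)
        rcases hH.2 K (hHeq ▸ hK1.le) hK2.le with h | h
        · exact hK1.ne (by rw [← hHeq, h])
        · exact hK2.ne h
      · exact ⟨W, hW0, hev, hW, hexc, eq_of_le hH (hle.trans inf_le_left) (not_le_stab hB h2 hn hW0 hW1)⟩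
    · have hev' : Even (finrank F W') := by
        rw [Nat.even_iff]
        rw [Nat.not_even_iff] at hev
        omega
      have hW'0 : W' ≠ ⊥ := fun h => by rw [h, finrank_bot] at hW'dim; omega
      have hW'1 : W' ≠ ⊤ := fun h => by rw [h, finrank_top, Module.finrank_pi, hcard] at hW'dim; omega
      have hle' : H ≤ Cfsg.Geo.subspaceStabilizer W' := fun g hg =>
        hperpstab W g (hH.1.le hg) (hle hg).1
      have hHeq := eq_of_le hH hle' (not_le_stab hB h2 hn hW'0 hW'1)
      refine ⟨W', hW'0, hev', hW'nd, fun hexc => ?_, hHeq⟩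
      obtain ⟨K, hK1, hK2⟩ := exists_between_plane Q' hexc.1.le hexc.2.1 hW'nd hexc.2.2 (by omega) hB
      rcases hH.2 K (hHeq ▸ hK1.le) hK2.le with h | h
      · exact hK1.ne (by rw [← hHeq, h])
      · exact hK2.ne h
  · -- decompositions into larger blocks
    rw [← hQ'] at hD
    have htk : t * k = 2 * m + 1 := by rw [← card_eq_of_decomp hD.decomp.decomp, hcard]
    have ht := hD.decomp.decomp.two_le
    have hk3 : k = 3 ∧ t = 3 ∧ m = 4 := by
      have : k ≤ 5 := by
        by_contra h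
        have : 2 * 6 ≤ t * k := Nat.mul_le_mul ht (by omega)
        omega
      have : t ≤ 5 := by
        by_contra h
        have : 6 * 2 ≤ t * k := Nat.mul_le_mul (by omega) hk
        omega
      interval_cases k <;> interval_cases t <;> omega
    obtain ⟨rfl, rfl, rfl⟩ := hk3
    have hHeq := eq_of_le hH (hle.trans inf_le_left) (not_le_decomp hB h2 hn le_rfl hD.decomp.decomp)
    by_cases hq : Fintype.card F = 3
    · obtain ⟨D', hD', hle'⟩ := exists_frame hq Q' hD
      right; right; left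
      exact ⟨hq ▸ Nat.prime_three, D', hD',
        eq_of_le hH (hHeq.le.trans hle') (not_le_frame hB h2 hn hD')⟩
    · iterate 3 right
      left
      exact ⟨rfl, hq5 hq, D, hD, hHeq⟩
  · -- frames
    rw [← hQ'] at hD
    have htk : t = 2 * m + 1 := by
      have := card_eq_of_decomp hD.decomp.decomp
      omega
    subst htk
    right; right; left
    exact ⟨hp, D, hD, eq_of_le hH (hle.trans inf_le_left) (not_le_frame hB h2 hn hD)⟩
  · -- extension fields
    rw [← hQ'] at hsa
    have hdvd := field_dvd_card hK hr.two_le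
    rw [hcard] at hdvd
    have hle7 := Nat.le_of_dvd (by omega) hdvd
    have hr3 : r = 3 ∧ m = 4 := by
      have h22 := hr.two_le
      interval_cases m <;> interval_cases r <;> first | omega | (norm_num at hr)
    obtain ⟨rfl, rfl⟩ := hr3
    iterate 4 right
    left
    exact ⟨rfl, K, hK, hsa, eq_of_le hH (hle.trans inf_le_left) (not_le_field hB hn (by omega) (by omega) hK)⟩
  · -- tensor products are too large
    exfalso
    have h := Fintype.card_congr e
    rw [hcard, Fintype.card_prod, Fintype.card_fin, Fintype.card_fin] at h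
    have : 3 * 4 ≤ n₁ * n₂ := Nat.mul_le_mul h1 (by omega)
    omega
  · rw [← hQ'] at hP
    iterate 5 right
    left
    refine ⟨F₀, r, P, hr, hc, hP, eq_of_le hH (hle.trans inf_le_left) (not_le_subfield hB h2 hn (fun h => ?_) P)⟩
    rw [h, Nat.card_congr (Equiv.subtypeUnivEquiv fun x => (Subfield.mem_top x)), Nat.card_eq_fintype_card] at hc
    exact absurd ((Nat.pow_eq_self_iff Fintype.one_lt_card).mp hc.symm) hr.one_lt.ne'
  · rw [← hQ'] at hT
    have h := Fintype.card_congr e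
    rw [hcard, Fintype.card_fun, Fintype.card_fin, Fintype.card_fin] at h
    have hkt : k = 3 ∧ t = 2 := by
      have h3 : t ≤ 2 := by
        by_contra hc
        have : 3 ^ 3 ≤ k ^ t := (Nat.pow_le_pow_left hk 3).trans (Nat.pow_le_pow_right (by omega) (by omega))
        omega
      have ht2 : t = 2 := by omega
      subst ht2
      refine ⟨?_, rfl⟩
      by_contra hc
      have : 4 ^ 2 ≤ k ^ 2 := Nat.pow_le_pow_left (by omega) 2
      omega
    obtain ⟨rfl, rfl⟩ := hkt
    have hm4 : m = 4 := by omega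
    iterate 6 right
    left
    exact ⟨hm4, hq5 fun h3 => hex ⟨h3, rfl⟩, e, P, f₁, hf, hT,
      eq_of_le hH (hle.trans inf_le_left) (not_le_tensor_square hB h2 (by omega) e P)⟩

end Cfsg.Agent.GeomClasses.OddMax
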