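import Cfsg.Agent.GeomClasses.OmegaBridge
import Cfsg.Agent.GeomClasses.BlockCoords

/-! # `Ω` in odd characteristic lies in no geometric stabiliser: arguments with Eichler maps -/

set_option autoImplicit false

namespace Cfsg.Agent.GeomClasses.OddMax

open Matrix Cfsg.Agent.Forms Module

variable {ι : Type} [Fintype ι] [DecidableEq ι] {F : Type*} [Field F] [Fintype F] {Q : QuadraticForm F (ι → F)}

local notation "BQ" => QuadraticMap.polarBilin Q
set_option quotPrecheck false in
local notation "Ωg" => Cfsg.Geo.omegaGL (DFunLike.coe Q)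

/-- `g` acts as the Eichler map with singular centre `b` and direction `v`. -/
def IsRoot (Q : QuadraticForm F (ι → F)) (b v : ι → F) (g : GL ι F) : Prop :=
  ∀ x, (g : Matrix ι ι F) *ᵥ x = eichlerMap Q b v x

omit [Fintype F] in
theorem gl_ext {g h : GL ι F} (e : ∀ x, (g : Matrix ι ι F) *ᵥ x = (h : Matrix ι ι F) *ᵥ x) : g = h :=
  Units.ext (Matrix.ext_of_mulVec_single fun i => e _)

theorem exists_root (hQ : (BQ).Nondegenerate) (hn : 7 ≤ Fintype.card ι) {b v : ι → F} (hb : Q b = 0)
    (hv : QuadraticMap.polar Q b v = 0) : ∃ g ∈ Ωg, IsRoot Q b v g := by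
  refine ⟨orthToGL Q (eichler Q b v hb hv), ?_, fun x => ?_⟩
  · rw [omegaGL_eq_map]
    exact Subgroup.mem_map_of_mem _ (eichler_mem_comm hQ (by rw [Module.finrank_pi]; exact hn) hb hv)
  · rw [orthToGL_mulVec, eichler_apply]

omit [Fintype F] in
theorem isRoot_mul {b v v' : ι → F} (hb : Q b = 0) (hv : QuadraticMap.polar Q b v = 0)
    (hv' : QuadraticMap.polar Q b v' = 0) {g g' : GL ι F} (hg : IsRoot Q b v g) (hg' : IsRoot Q b v' g') :
    IsRoot Q b (v + v') (g * g') := fun x => by
  rw [Units.val_mul, ← Matrix.mulVec_mulVec, hg', hg, eichlerMap_comp hb hv hv']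

omit [Fintype F] in
theorem isRoot_unique {b v : ι → F} {g g' : GL ι F} (hg : IsRoot Q b v g) (hg' : IsRoot Q b v g') : g = g' :=
  gl_ext fun x => by rw [hg, hg']

omit [Fintype F] in
theorem isRoot_pow {b v : ι → F} (hb : Q b = 0) (hv : QuadraticMap.polar Q b v = 0) {g : GL ι F}
    (hg : IsRoot Q b v g) (k : ℕ) : IsRoot Q b ((k : F) • v) (g ^ k) := by
  induction k with
  | zero => intro x; simp [eichlerMap_zero]
  | succ k ih =>
    rw [pow_succ, Nat.cast_succ, add_smul, one_smul]
    exact isRoot_mul hb (by rw [QuadraticMap.polar_smul_right, hv, smul_zero]) hv ih hg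

theorem isRoot_pow_char {b v : ι → F} (hb : Q b = 0) (hv : QuadraticMap.polar Q b v = 0) {g : GL ι F}
    (hg : IsRoot Q b v g) : g ^ ringChar F = 1 :=
  gl_ext fun x => by
    rw [isRoot_pow hb hv hg, ringChar.Nat.cast_ringChar, zero_smul, eichlerMap_zero, Units.val_one, Matrix.one_mulVec]

omit [Fintype F] in
theorem root_sub_mem {b v : ι → F} {g : GL ι F} (hg : IsRoot Q b v g) (x : ι → F) :
    (g : Matrix ι ι F) *ᵥ x - x ∈ Submodule.span F ({b, v} : Set (ι → F)) := by
  rw [hg, eichlerMap_apply]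
  rw [show x + QuadraticMap.polar Q b x • v - (QuadraticMap.polar Q v x + Q v * QuadraticMap.polar Q b x) • b - x =
    QuadraticMap.polar Q b x • v - (QuadraticMap.polar Q v x + Q v * QuadraticMap.polar Q b x) • b by abel]
  exact sub_mem (Submodule.smul_mem _ _ (Submodule.subset_span (by simp)))
    (Submodule.smul_mem _ _ (Submodule.subset_span (by simp)))

omit [Fintype F] in
theorem finrank_pair_le (b v : ι → F) : finrank F (Submodule.span F ({b, v} : Set (ι → F))) ≤ 2 := by
  classical
  have h := finrank_span_finset_le_card (R := F) ({b, v} : Finset (ι → F))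
  rw [Finset.coe_insert, Finset.coe_singleton] at h
  exact h.trans Finset.card_le_two

omit [Fintype F] in
/-- A root element with independent direction moves some vector. -/
theorem root_moves (hQ : (BQ).Nondegenerate) {b v : ι → F} (hb : b ≠ 0)
    (hv : v ∉ Submodule.span F ({b} : Set (ι → F))) {g : GL ι F} (hg : IsRoot Q b v g) :
    ∃ x, (g : Matrix ι ι F) *ᵥ x ≠ x := by
  obtain ⟨x, hx⟩ := (isForm_quadratic Q hQ).exists_pairing hb (1 : F)
  simp only [QuadraticMap.polarBilin_apply_apply] at hx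
  refine ⟨x, fun h => hv (Submodule.mem_span_singleton.mpr ⟨QuadraticMap.polar Q v x + Q v, ?_⟩)⟩
  rw [hg, eichlerMap_apply, hx, one_smul, mul_one, add_sub_assoc] at h
  have h0 := add_left_cancel (h.trans (add_zero x).symm)
  exact (sub_eq_zero.mp h0).symm

/-! ### Irreducibility -/

omit [DecidableEq ι] in
theorem exists_singular_pairing (hQ : (BQ).Nondegenerate) (h2 : (2 : F) ≠ 0) (hn : 3 ≤ Fintype.card ι) {w : ι → F}
    (hw : w ≠ 0) : ∃ b, Q b = 0 ∧ QuadraticMap.polar Q b w ≠ 0 := by
  classical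
  by_contra hcon
  push Not at hcon
  have hI := isForm_quadratic Q hQ
  obtain ⟨b, hb0, hb⟩ := exists_singular_of_three_le Q (by rw [Module.finrank_pi]; exact hn)
  obtain ⟨d, hd⟩ := hI.exists_pairing hb0 (1 : F)
  simp only [QuadraticMap.polarBilin_apply_apply] at hd
  obtain ⟨c, -, hp⟩ := exists_pair Q (W := ⊤) (x := d) trivial hb trivial (by rw [hd]; exact one_ne_zero)
  have hQw : Q w = 0 := by
    have hbw := hcon b hb
    have hcw := hcon c hp.qf
    set u := w + b + (-Q w) • c with hu
    have hQu : Q u = 0 := by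
      simp only [hu, QuadraticMap.map_add (⇑Q), QuadraticMap.map_smul, QuadraticMap.polar_add_left,
        QuadraticMap.polar_smul_right, smul_eq_mul, hb, hp.qf, hp.ef, QuadraticMap.polar_comm (⇑Q) w b, hbw,
        QuadraticMap.polar_comm (⇑Q) w c, hcw]
      ring
    have h := hcon u hQu
    simp only [hu, QuadraticMap.polar_add_left, QuadraticMap.polar_smul_left, smul_eq_mul, hbw, hcw,
      polar_self_two_mul] at h
    exact (mul_eq_zero.mp (by linear_combination h)).resolve_left h2
  obtain ⟨x, hx⟩ := hI.exists_pairing hw (1 : F)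
  simp only [QuadraticMap.polarBilin_apply_apply] at hx
  obtain ⟨w', -, hp'⟩ := exists_pair Q (W := ⊤) (x := x) trivial hQw trivial (by rw [hx]; exact one_ne_zero)
  have h := hcon w' hp'.qf
  rw [QuadraticMap.polar_comm, hp'.ef] at h
  exact one_ne_zero h

omit [DecidableEq ι] in
theorem exists_perp_anisotropic (hQ : (BQ).Nondegenerate) (hn : 3 ≤ Fintype.card ι) (b : ι → F) :
    ∃ v, QuadraticMap.polar Q b v = 0 ∧ Q v ≠ 0 := by
  classical
  by_contra hcon
  push Not at hcon
  have hI := isForm_quadratic Q hQ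
  set X := perp BQ (Submodule.span F ({b} : Set (ι → F)))
  have hts : ∀ x ∈ X, Q x = 0 := fun x hx => hcon x (by simpa using mem_perp_span_singleton.mp hx)
  have h1 := Submodule.finrank_mono (show X ≤ perp BQ X from fun y hy x hx => polar_ts hts hx hy)
  have h2 := hI.finrank_perp X
  have h3 := hI.finrank_perp (Submodule.span F ({b} : Set (ι → F)))
  have h4 : finrank F (Submodule.span F ({b} : Set (ι → F))) ≤ 1 := (finrank_span_le_card {b}).trans (by simp)
  rw [Module.finrank_pi] at h2 h3
  change finrank F X + _ = _ at h3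
  omega

omit [DecidableEq ι] in
/-- A nonzero subspace invariant under all Eichler maps is the whole space. -/
theorem invariant_top (hQ : (BQ).Nondegenerate) (h2 : (2 : F) ≠ 0) (hn : 3 ≤ Fintype.card ι)
    {W : Submodule F (ι → F)} (hW : W ≠ ⊥)
    (hinv : ∀ b v, Q b = 0 → QuadraticMap.polar Q b v = 0 → ∀ x ∈ W, eichlerMap Q b v x ∈ W) : W = ⊤ := by
  classical
  obtain ⟨w, hw, hw0⟩ := Submodule.exists_mem_ne_zero_of_ne_bot hW
  obtain ⟨b, hb, hbw⟩ := exists_singular_pairing hQ h2 hn hw0
  obtain ⟨v, hbv, hQv⟩ := exists_perp_anisotropic hQ hn b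
  have hd : ∀ u, QuadraticMap.polar Q b u = 0 →
      QuadraticMap.polar Q b w • u - (QuadraticMap.polar Q u w + Q u * QuadraticMap.polar Q b w) • b ∈ W := by
    intro u hu
    have h := sub_mem (hinv b u hb hu w hw) hw
    rw [eichlerMap_apply] at h
    convert h using 1; abel
  have hbW : b ∈ W := by
    have h := add_mem (hd v hbv) (hd (-v) (by rw [QuadraticMap.polar_neg_right, hbv, neg_zero]))
    rw [QuadraticMap.map_neg, QuadraticMap.polar_neg_left] at h
    refine (Submodule.smul_mem_iff W (s := -(2 * (Q v * QuadraticMap.polar Q b w))) ?_).mp ?_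
    · exact neg_ne_zero.mpr (mul_ne_zero h2 (mul_ne_zero hQv hbw))
    · convert h using 1; module
  have hperp : perp BQ (Submodule.span F ({b} : Set (ι → F))) ≤ W := by
    intro u hu
    have h := add_mem (hd u (by simpa using mem_perp_span_singleton.mp hu))
      (W.smul_mem (QuadraticMap.polar Q u w + Q u * QuadraticMap.polar Q b w) hbW)
    rw [sub_add_cancel] at h
    exact (Submodule.smul_mem_iff W hbw).mp h
  have hlt : perp BQ (Submodule.span F ({b} : Set (ι → F))) < W :=
    lt_of_le_of_ne hperp fun e => hbw (by simpa using mem_perp_span_singleton.mp (e ▸ hw :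
      w ∈ perp BQ (Submodule.span F ({b} : Set (ι → F)))))
  have h1 := Submodule.finrank_lt_finrank_of_lt hlt
  have h3 := (isForm_quadratic Q hQ).finrank_perp (Submodule.span F ({b} : Set (ι → F)))
  have h4 : finrank F (Submodule.span F ({b} : Set (ι → F))) ≤ 1 := (finrank_span_le_card {b}).trans (by simp)
  have h5 := Submodule.finrank_le W
  exact Submodule.eq_top_of_finrank_eq (by omega)

theorem not_le_stab (hQ : (BQ).Nondegenerate) (h2 : (2 : F) ≠ 0) (hn : 7 ≤ Fintype.card ι)
    {W : Submodule F (ι → F)} (hW : W ≠ ⊥) (hW' : W ≠ ⊤) : ¬ Ωg ≤ Cfsg.Geo.subspaceStabilizer W := fun hle =>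
  hW' (invariant_top hQ h2 (by omega) hW fun b v hb hv x hx => by
    obtain ⟨g, hg, hr⟩ := exists_root hQ hn hb hv
    rw [← hr x]
    exact mem_subspaceStabilizer_iff.mp (hle hg) x hx)

/-! ### Decompositions -/

omit [Fintype F] in
theorem card_eq_of_decomp {t k : ℕ} {D : Fin t → Submodule F (ι → F)} (hD : Cfsg.Geo.IsMDecomposition k D) :
    Fintype.card ι = t * k := by
  obtain ⟨e, -, -⟩ := exists_blockCoords hD fun i => Module.finBasisOfFinrankEq F (D i) (hD.finrank_eq i)
  simpa using e.finrank_eq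

/-- Blocks of dimension at least three are not permuted by `Ω`. -/
theorem not_le_decomp (hQ : (BQ).Nondegenerate) (h2 : (2 : F) ≠ 0) (hn : 7 ≤ Fintype.card ι)
    {t k : ℕ} (hk : 3 ≤ k) {D : Fin t → Submodule F (ι → F)} (hD : Cfsg.Geo.IsMDecomposition k D) :
    ¬ Ωg ≤ Cfsg.Geo.decompositionStabilizer D := by
  intro hle
  have ht := hD.two_le
  let i₀ : Fin t := ⟨0, by omega⟩
  have hne : D i₀ ≠ ⊥ := fun e => by
    have := hD.finrank_eq i₀
    rw [e, finrank_bot] at this; omega
  have htop : D i₀ ≠ ⊤ := fun e => by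
    have := hD.finrank_eq i₀
    rw [e, finrank_top, Module.finrank_pi, card_eq_of_decomp hD] at this
    have : 2 * k ≤ t * k := Nat.mul_le_mul_right k ht
    omega
  refine htop (invariant_top hQ h2 (by omega) hne fun b v hb hv x hx => ?_)
  obtain ⟨g, hg, hr⟩ := exists_root hQ hn hb hv
  obtain ⟨σ, hσ⟩ := hle hg
  have hσi : σ i₀ = i₀ := by
    by_contra hmove
    set P := perp BQ (Submodule.span F ({b, v} : Set (ι → F)))
    have h1 := Submodule.finrank_sup_add_finrank_inf_eq (D i₀) P
    have h3 := (isForm_quadratic Q hQ).finrank_perp (Submodule.span F ({b, v} : Set (ι → F)))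
    have h4 := finrank_pair_le (F := F) b v
    have h5 := Submodule.finrank_le (D i₀ ⊔ P)
    have h6 := hD.finrank_eq i₀
    change finrank F P + _ = _ at h3
    rw [Module.finrank_pi] at h3 h5
    have hpos : (D i₀ ⊓ P) ≠ ⊥ := fun e => by rw [e, finrank_bot] at h1; omega
    obtain ⟨y, hy, hy0⟩ := Submodule.exists_mem_ne_zero_of_ne_bot hpos
    have hy2 := mem_perp_span.mp hy.2
    have hfix : (g : Matrix ι ι F) *ᵥ y = y := by
      rw [hr, eichlerMap_apply]
      have e1 : QuadraticMap.polar Q b y = 0 := by simpa using hy2 b (by simp)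
      have e2 : QuadraticMap.polar Q v y = 0 := by simpa using hy2 v (by simp)
      simp [e1, e2]
    have hy' : y ∈ D (σ i₀) := hσ i₀ ▸ ⟨y, hy.1, by rw [Matrix.toLin'_apply, hfix]⟩
    exact hy0 (Submodule.disjoint_def.mp (hD.indep.pairwiseDisjoint (Ne.symm hmove)) y hy.1 hy')
  rw [← hr x, ← hσi, ← hσ i₀]
  exact ⟨x, hx, Matrix.toLin'_apply _ _⟩

end Cfsg.Agent.GeomClasses.OddMax
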